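import Cfsg.Agent.Lib.Helper8.Ree.XF

/-! REE ladder, X-chain (Schur multiplier), rung XA. -/

set_option autoImplicit false
open scoped commutatorElement

namespace Cfsg.Agent.Lib.Helper8

namespace ReeFull

variable {G : Type*} [Group G] {K : Type*} [Field K] (D : ReeFull G K)

variable {Γ : Type*} [Group Γ] {σ : Γ →* G} (E : CExt σ)

theorem xa_comm (t u v y : K) : ⁅D.U t u v, D.U 0 0 y⁆ = 1 :=
  commutatorElement_eq_one_iff_mul_comm.2 (D.U00_central y t u v).symm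

theorem xa_H3 (z : Kˣ) (y : K) :
    D.H z * D.U 0 0 y * (D.H z)⁻¹ = D.U 0 0 ((z : K) ^ 2 * D.ψ z * y) := by
  rw [D.H_conj, mul_zero, mul_zero]

theorem xa_H2 (z : Kˣ) (y : K) :
    D.H z * D.U 0 y 0 * (D.H z)⁻¹ = D.U 0 (z * D.ψ z * y) 0 := by
  rw [D.H_conj, mul_zero, mul_zero]

theorem xa_H1 (z : Kˣ) (y : K) :
    D.H z * D.U y 0 0 * (D.H z)⁻¹ = D.U (z * y) 0 0 := by
  rw [D.H_conj, mul_zero, mul_zero]

theorem xa_decomp (t u v : K) : D.U t u v = D.U t 0 0 * D.U 0 u 0 * D.U 0 0 v := by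
  rw [D.U_mul, D.U_mul]
  congr 1 <;> simp

theorem xa_add_right (g : G) (hg : g ∈ D.Us) (y y' : K) :
    E.cm g (D.U 0 0 (y + y')) = E.cm g (D.U 0 0 y) * E.cm g (D.U 0 0 y') := by
  obtain ⟨t, u, v, rfl⟩ := hg
  rw [← D.U00_mul, E.cm_mul_right (D.xa_comm t u v y')]

theorem x_A33 (x y : K) : E.cm (D.U 0 0 x) (D.U 0 0 y) = 1 := by
  refine D.x_P33 (fun x y => E.cm (D.U 0 0 x) (D.U 0 0 y)) ?_ ?_ ?_ x y
  · intro x x' y
    show E.cm (D.U 0 0 (x + x')) (D.U 0 0 y) = _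
    rw [← D.U00_mul, E.cm_mul_left (D.xa_comm 0 0 x' y)]
  · intro x y y'
    exact D.xa_add_right E _ (D.U_mem _ _ _) y y'
  · intro z x y
    show E.cm (D.U 0 0 _) (D.U 0 0 _) = _
    rw [← D.xa_H3, ← D.xa_H3, E.cm_conj _ _ _ (D.xa_comm 0 0 x y)]

theorem x_A23 (x y : K) : E.cm (D.U 0 x 0) (D.U 0 0 y) = 1 := by
  refine D.x_par_right (fun x y => E.cm (D.U 0 x 0) (D.U 0 0 y)) ?_ ?_ x y
  · intro x y y'
    exact D.xa_add_right E _ (D.U_mem _ _ _) y y'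
  · intro x y
    show E.cm (D.U 0 x 0) (D.U 0 0 (-y)) = _
    have h2 := D.xa_H2 (-1) x
    have h3 := D.xa_H3 (-1) y
    have e2 : ((-1 : Kˣ) : K) * D.ψ ((-1 : Kˣ) : K) * x = x := by simp
    have e3 : ((-1 : Kˣ) : K) ^ 2 * D.ψ ((-1 : Kˣ) : K) * y = -y := by simp
    rw [e2] at h2
    rw [e3] at h3
    have := E.cm_conj (D.H (-1)) _ _ (D.xa_comm 0 x 0 y)
    rwa [h2, h3] at this

theorem xa_red (t u v y : K) : E.cm (D.U t u v) (D.U 0 0 y) = E.cm (D.U t 0 0) (D.U 0 0 y) := by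
  rw [D.xa_decomp t u v, E.cm_mul_left (D.xa_comm 0 0 v y), E.cm_mul_left (D.xa_comm 0 u 0 y),
    D.x_A33, D.x_A23, mul_one, mul_one]

theorem x_A13 (x y : K) : E.cm (D.U x 0 0) (D.U 0 0 y) = 1 := by
  refine D.x_P13 (fun x y => E.cm (D.U x 0 0) (D.U 0 0 y)) ?_ ?_ ?_ x y
  · intro x x' y
    show E.cm (D.U (x + x') 0 0) (D.U 0 0 y) = E.cm (D.U x 0 0) (D.U 0 0 y) * E.cm (D.U x' 0 0) (D.U 0 0 y)
    rw [← E.cm_mul_left (D.xa_comm x' 0 0 y), D.U_mul]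
    exact (D.xa_red E _ _ _ y).symm
  · intro x y y'
    exact D.xa_add_right E _ (D.U_mem _ _ _) y y'
  · intro z x y
    show E.cm (D.U _ 0 0) (D.U 0 0 _) = _
    rw [← D.xa_H1, ← D.xa_H3, E.cm_conj _ _ _ (D.xa_comm x 0 0 y)]

/-- lifts of the centre of `U` are central in the preimage of `U`. -/
theorem x_A (t u v y : K) : E.cm (D.U t u v) (D.U 0 0 y) = 1 := by
  rw [D.xa_red, D.x_A13]

end ReeFull

end Cfsg.Agent.Lib.Helper8
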