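import Cfsg.Agent.Lib.Helper8.Ree.XA

/-! REE ladder, X-chain (Schur multiplier), rung XB. -/

set_option autoImplicit false
open scoped commutatorElement

namespace Cfsg.Agent.Lib.Helper8

namespace ReeFull

variable {G : Type*} [Group G] {K : Type*} [Field K] (D : ReeFull G K)

variable {Γ : Type*} [Group Γ] {σ : Γ →* G} (E : CExt σ)

theorem xb_mul (x y : K) : D.U 0 x 0 * D.U 0 y 0 = D.U 0 (x + y) 0 := by
  rw [D.U_mul]
  congr 1 <;> simp

theorem xb_comm (x y : K) : ⁅D.U 0 x 0, D.U 0 y 0⁆ = 1 := by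
  rw [commutatorElement_eq_one_iff_mul_comm, D.xb_mul, D.xb_mul, add_comm]

include E in
theorem xb_cm_symm (x y : G) : E.cm x y = (E.cm y x)⁻¹ := by
  unfold CExt.cm
  rw [commutatorElement_inv]

theorem x_B22 (x y : K) : E.cm (D.U 0 x 0) (D.U 0 y 0) = 1 := by
  refine D.x_P22 (fun x y => E.cm (D.U 0 x 0) (D.U 0 y 0)) ?_ ?_ ?_ x y
  · intro x x' y
    show E.cm (D.U 0 (x + x') 0) (D.U 0 y 0) = _
    rw [← D.xb_mul, E.cm_mul_left (D.xb_comm x' y)]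
  · intro x y y'
    show E.cm (D.U 0 x 0) (D.U 0 (y + y') 0) = _
    rw [← D.xb_mul, E.cm_mul_right (D.xb_comm x y')]
  · intro z x y
    show E.cm (D.U 0 _ 0) (D.U 0 _ 0) = _
    rw [← D.xa_H2, ← D.xa_H2, E.cm_conj _ _ _ (D.xb_comm x y)]

theorem xb_decomp (u v : K) : D.U 0 u v = D.U 0 u 0 * D.U 0 0 v := by
  rw [D.xa_decomp 0 u v, D.U_zero, one_mul]

/-- the preimage of `U₁ = {U 0 u v}` is abelian. -/
theorem x_B (u v u' v' : K) : E.cm (D.U 0 u v) (D.U 0 u' v') = 1 := by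
  have h1 : ⁅D.U 0 0 v, D.U 0 u' v'⁆ = 1 := by
    rw [← commutatorElement_inv, D.xa_comm, inv_one]
  rw [D.xb_decomp u v, E.cm_mul_left h1, xb_cm_symm E (D.U 0 0 v), D.x_A, inv_one, mul_one,
    D.xb_decomp u' v', E.cm_mul_right (D.xa_comm 0 u 0 v'), D.x_B22, D.x_A, mul_one]

end ReeFull

end Cfsg.Agent.Lib.Helper8
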