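import Cfsg.Agent.Lib.Helper8.Ree.Base

/-! REE ladder, X-chain (Schur multiplier of the small Ree groups): central extensions, base file. -/

set_option autoImplicit false
open scoped commutatorElement

namespace Cfsg.Agent.Lib.Helper8

/-- `σ : Γ → G` is a central extension. -/
structure CExt {Γ G : Type*} [Group Γ] [Group G] (σ : Γ →* G) : Prop where
  surj : Function.Surjective σ
  cen : ∀ {c : Γ}, σ c = 1 → ∀ g, c * g = g * c

namespace CExt

variable {Γ G : Type*} [Group Γ] [Group G] {σ : Γ →* G}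

theorem xcomm_mul_left {g g' h : Γ} (hc : g * ⁅g', h⁆ = ⁅g', h⁆ * g) :
    ⁅g * g', h⁆ = ⁅g', h⁆ * ⁅g, h⁆ := by
  have : ⁅g * g', h⁆ = g * ⁅g', h⁆ * g⁻¹ * ⁅g, h⁆ := by
    simp only [commutatorElement_def]; group
  rw [this, hc, mul_inv_cancel_right]

theorem xcomm_mul_right {g h h' : Γ} (hc : h * ⁅g, h'⁆ = ⁅g, h'⁆ * h) :
    ⁅g, h * h'⁆ = ⁅g, h⁆ * ⁅g, h'⁆ := by
  have : ⁅g, h * h'⁆ = ⁅g, h⁆ * (h * ⁅g, h'⁆ * h⁻¹) := by
    simp only [commutatorElement_def]; group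
  rw [this, hc, mul_inv_cancel_right]

theorem xcomm_absorb_left {g z h : Γ} (hz : z * h = h * z) : ⁅g * z, h⁆ = ⁅g, h⁆ := by
  simp only [commutatorElement_def, mul_inv_rev]
  have : g * z * h = g * h * z := by rw [mul_assoc, hz, ← mul_assoc]
  rw [this]; group

theorem xcomm_absorb_right {g z h : Γ} (hz : z * g = g * z) : ⁅g, h * z⁆ = ⁅g, h⁆ := by
  simp only [commutatorElement_def, mul_inv_rev]
  have : z * g⁻¹ = g⁻¹ * z := by
    rw [eq_inv_mul_iff_mul_eq, ← mul_assoc, ← hz, mul_inv_cancel_right]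
  have h2 : g * (h * z) * g⁻¹ = g * h * g⁻¹ * z := by
    rw [mul_assoc, mul_assoc, this]; group
  rw [h2]; group

theorem xconj_comm (e g h : Γ) : e * ⁅g, h⁆ * e⁻¹ = ⁅e * g * e⁻¹, e * h * e⁻¹⁆ := by
  simp only [commutatorElement_def]; group

variable (E : CExt σ)
include E

theorem exists_eq {g g' : Γ} (h : σ g = σ g') : ∃ c, σ c = 1 ∧ g' = g * c :=
  ⟨g⁻¹ * g', by rw [map_mul, map_inv, h, inv_mul_cancel], by group⟩

theorem comm_congr {g g' h h' : Γ} (h1 : σ g = σ g') (h2 : σ h = σ h') : ⁅g, h⁆ = ⁅g', h'⁆ := by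
  obtain ⟨c, hc, rfl⟩ := E.exists_eq h1
  obtain ⟨c', hc', rfl⟩ := E.exists_eq h2
  rw [xcomm_absorb_left (E.cen hc _), xcomm_absorb_right (E.cen hc' _)]

theorem conj_cen {c : Γ} (hc : σ c = 1) (e : Γ) : e * c * e⁻¹ = c := by
  rw [← E.cen hc e, mul_inv_cancel_right]

theorem conj_congr {e e' : Γ} (h : σ e = σ e') (g : Γ) : e * g * e⁻¹ = e' * g * e'⁻¹ := by
  obtain ⟨c, hc, rfl⟩ := E.exists_eq h
  have h1 : c * g = g * c := E.cen hc g
  rw [mul_inv_rev, mul_assoc e c g, h1]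
  group

/-- a set-theoretic section -/
noncomputable def lf (x : G) : Γ := Function.surjInv E.surj x

theorem σ_lf (x : G) : σ (E.lf x) = x := Function.surjInv_eq E.surj x

/-- the commutator of lifts, as a function on `G × G`. -/
noncomputable def cm (x y : G) : Γ := ⁅E.lf x, E.lf y⁆

theorem cm_eq (g h : Γ) : ⁅g, h⁆ = E.cm (σ g) (σ h) :=
  E.comm_congr (E.σ_lf _).symm (E.σ_lf _).symm

theorem cm_eq' {g h : Γ} {x y : G} (hg : σ g = x) (hh : σ h = y) : ⁅g, h⁆ = E.cm x y := by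
  rw [E.cm_eq, hg, hh]

theorem σ_cm (x y : G) : σ (E.cm x y) = ⁅x, y⁆ := by
  unfold cm
  rw [map_commutatorElement, E.σ_lf, E.σ_lf]

theorem conj_cm (e : Γ) (x y : G) :
    e * E.cm x y * e⁻¹ = E.cm (σ e * x * (σ e)⁻¹) (σ e * y * (σ e)⁻¹) := by
  unfold cm
  rw [xconj_comm]
  apply E.comm_congr <;> simp [E.σ_lf]

/-- invariance of central values. -/
theorem cm_conj (s x y : G) (h : ⁅x, y⁆ = 1) :
    E.cm (s * x * s⁻¹) (s * y * s⁻¹) = E.cm x y := by
  have h1 := E.conj_cm (E.lf s) x y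
  rw [E.σ_lf] at h1
  rw [← h1, E.conj_cen (by rw [E.σ_cm, h])]

theorem cm_mul_left {x x' y : G} (h : ⁅x', y⁆ = 1) : E.cm (x * x') y = E.cm x y * E.cm x' y := by
  have h0 : σ (E.cm x' y) = 1 := by rw [E.σ_cm, h]
  have h1 : ⁅E.lf x * E.lf x', E.lf y⁆ = E.cm (x * x') y :=
    E.cm_eq' (by rw [map_mul, E.σ_lf, E.σ_lf]) (E.σ_lf _)
  rw [← h1, xcomm_mul_left (E.cen h0 _).symm]
  exact E.cen h0 _

theorem cm_mul_right {x y y' : G} (h : ⁅x, y'⁆ = 1) : E.cm x (y * y') = E.cm x y * E.cm x y' := by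
  have h0 : σ (E.cm x y') = 1 := by rw [E.σ_cm, h]
  have h1 : ⁅E.lf x, E.lf y * E.lf y'⁆ = E.cm x (y * y') :=
    E.cm_eq' (E.σ_lf _) (by rw [map_mul, E.σ_lf, E.σ_lf])
  rw [← h1, xcomm_mul_right (E.cen h0 _).symm]
  rfl

theorem comm_of_cm {g h : Γ} (hc : E.cm (σ g) (σ h) = 1) : g * h = h * g :=
  commutatorElement_eq_one_iff_mul_comm.1 (by rw [E.cm_eq, hc])

theorem cm_of_comm {g h : Γ} (hc : g * h = h * g) : E.cm (σ g) (σ h) = 1 := by
  rw [← E.cm_eq]; exact commutatorElement_eq_one_iff_mul_comm.2 hc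

theorem cm_one_left (y : G) : E.cm 1 y = 1 := by
  have := E.cm_of_comm (g := 1) (h := E.lf y) (by simp)
  rwa [map_one, E.σ_lf] at this

theorem cm_one_right (x : G) : E.cm x 1 = 1 := by
  have := E.cm_of_comm (g := E.lf x) (h := 1) (by simp)
  rwa [map_one, E.σ_lf] at this

theorem cm_self (x : G) : E.cm x x = 1 := by
  have := E.cm_of_comm (g := E.lf x) (h := E.lf x) rfl
  rwa [E.σ_lf] at this

end CExt

end Cfsg.Agent.Lib.Helper8
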