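import Cfsg.Agent.Lib.Helper8.Ree.XB

/-! REE ladder, X-chain (Schur multiplier), rung XC. -/

set_option autoImplicit false
open scoped commutatorElement

namespace Cfsg.Agent.Lib.Helper8

namespace ReeFull

variable {G : Type*} [Group G] {K : Type*} [Field K] (D : ReeFull G K)

variable {Γ : Type*} [Group Γ] {σ : Γ →* G} (E : CExt σ)

/-- the canonical additive section over `{U 0 0 v}`. -/
noncomputable def xJ3 (v : K) : Γ := E.cm D.j (D.U 0 0 v)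

/-- the canonical additive section over `{U 0 u 0}`. -/
noncomputable def xJ2 (u : K) : Γ :=
  E.cm (D.H D.z₀) (D.U 0 (((D.z₀ : K) * D.ψ D.z₀ - 1)⁻¹ * u) 0)

theorem xc_inv3 (v : K) : (D.U 0 0 v)⁻¹ = D.U 0 0 (-v) := by
  rw [inv_eq_iff_mul_eq_one, D.U00_mul, add_neg_cancel, D.U_zero]

theorem xc_inv2 (v : K) : (D.U 0 v 0)⁻¹ = D.U 0 (-v) 0 := by
  rw [inv_eq_iff_mul_eq_one, D.xb_mul, add_neg_cancel, D.U_zero]

theorem xc_comm_H3 (z : Kˣ) (v : K) :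
    ⁅D.H z, D.U 0 0 v⁆ = D.U 0 0 (((z : K) ^ 2 * D.ψ z - 1) * v) := by
  rw [commutatorElement_def, D.xa_H3, D.xc_inv3, D.U00_mul]
  congr 1
  ring

theorem xc_comm_H2 (z : Kˣ) (v : K) :
    ⁅D.H z, D.U 0 v 0⁆ = D.U 0 (((z : K) * D.ψ z - 1) * v) 0 := by
  rw [commutatorElement_def, D.xa_H2, D.xc_inv2, D.xb_mul]
  congr 1
  ring

theorem xc_comm_j (v : K) : ⁅D.j, D.U 0 0 v⁆ = D.U 0 0 v := by
  unfold j
  rw [D.xc_comm_H3]
  congr 1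
  have h3 := D.three
  simp only [Units.val_neg, Units.val_one, map_neg, map_one]
  linear_combination (-v) * h3

theorem xc_w_ne : (D.z₀ : K) * D.ψ D.z₀ - 1 ≠ 0 := by
  intro h
  exact D.z₀_sq (D.psi_u (sub_eq_zero.1 h))

theorem xc_comm_z₀ (u : K) :
    ⁅D.H D.z₀, D.U 0 (((D.z₀ : K) * D.ψ D.z₀ - 1)⁻¹ * u) 0⁆ = D.U 0 u 0 := by
  rw [D.xc_comm_H2, ← mul_assoc, mul_inv_cancel₀ D.xc_w_ne, one_mul]

theorem σ_xJ3 (v : K) : σ (D.xJ3 E v) = D.U 0 0 v := by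
  unfold xJ3
  rw [E.σ_cm, D.xc_comm_j]

theorem σ_xJ2 (u : K) : σ (D.xJ2 E u) = D.U 0 u 0 := by
  unfold xJ2
  rw [E.σ_cm, D.xc_comm_z₀]

include E in
theorem xc_cm_mul_right (x y y' : G) (hc : E.cm y ⁅x, y'⁆ = 1) :
    E.cm x (y * y') = E.cm x y * E.cm x y' := by
  have h1 : ⁅E.lf x, E.lf y * E.lf y'⁆ = E.cm x (y * y') :=
    E.cm_eq' (E.σ_lf _) (by rw [map_mul, E.σ_lf, E.σ_lf])
  have hc' : E.lf y * ⁅E.lf x, E.lf y'⁆ = ⁅E.lf x, E.lf y'⁆ * E.lf y := by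
    apply E.comm_of_cm
    rw [E.σ_lf, map_commutatorElement, E.σ_lf, E.σ_lf]
    exact hc
  rw [← h1, CExt.xcomm_mul_right hc']
  rfl

theorem xJ3_add (v v' : K) : D.xJ3 E (v + v') = D.xJ3 E v * D.xJ3 E v' := by
  unfold xJ3
  rw [← D.U00_mul]
  apply xc_cm_mul_right
  rw [D.xc_comm_j, D.x_A33]

theorem xJ2_add (u u' : K) : D.xJ2 E (u + u') = D.xJ2 E u * D.xJ2 E u' := by
  unfold xJ2
  rw [mul_add, ← D.xb_mul]
  apply xc_cm_mul_right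
  rw [D.xc_comm_z₀, D.x_B22]

theorem xc_H_conj (z w : Kˣ) : D.H z * D.H w * (D.H z)⁻¹ = D.H w := by
  rw [D.H_comm z w, mul_inv_cancel_right]

theorem xJ3_H {e : Γ} {z : Kˣ} (he : σ e = D.H z) (v : K) :
    e * D.xJ3 E v * e⁻¹ = D.xJ3 E ((z : K) ^ 2 * D.ψ z * v) := by
  unfold xJ3 j
  rw [E.conj_cm, he, D.xc_H_conj, D.xa_H3]

theorem xJ2_H {e : Γ} {z : Kˣ} (he : σ e = D.H z) (u : K) :
    e * D.xJ2 E u * e⁻¹ = D.xJ2 E (z * D.ψ z * u) := by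
  unfold xJ2
  rw [E.conj_cm, he, D.xc_H_conj, D.xa_H2]
  congr 2
  ring

end ReeFull

end Cfsg.Agent.Lib.Helper8
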