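import Cfsg.Agent.Lib.Helper8.Ree.XC

/-! REE ladder, X-chain (Schur multiplier), rung XD. -/

set_option autoImplicit false
open scoped commutatorElement

namespace Cfsg.Agent.Lib.Helper8

namespace ReeFull

variable {G : Type*} [Group G] {K : Type*} [Field K] (D : ReeFull G K)

variable {Γ : Type*} [Group Γ] {σ : Γ →* G} (E : CExt σ)

theorem xJ3_U {g : Γ} {t u v : K} (hg : σ g = D.U t u v) (y : K) :
    g * D.xJ3 E y * g⁻¹ = D.xJ3 E y := by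
  have h : g * D.xJ3 E y = D.xJ3 E y * g := by
    apply E.comm_of_cm
    rw [hg, D.σ_xJ3, D.x_A]
  rw [h, mul_inv_cancel_right]

theorem xd_conj (t u v x : K) :
    D.U t u v * D.U 0 x 0 * (D.U t u v)⁻¹ = D.U 0 x 0 * D.U 0 0 (x * t) := by
  rw [mul_inv_eq_iff_eq_mul, D.U_mul, D.U_mul, D.U_mul]
  congr 1
  · ring
  · simp; ring
  · simp

/-- conjugation of `xJ2 x` by a lift of `U t u v` depends only on `t`. -/
theorem xd_indep {g : Γ} {t u v : K} (hg : σ g = D.U t u v) (x : K) :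
    g * D.xJ2 E x * g⁻¹ = E.lf (D.U t 0 0) * D.xJ2 E x * (E.lf (D.U t 0 0))⁻¹ := by
  obtain ⟨g₀, hg₀⟩ : ∃ g₀, g₀ = E.lf (D.U t 0 0) := ⟨_, rfl⟩
  have hσ₀ : σ g₀ = D.U t 0 0 := by rw [hg₀, E.σ_lf]
  rw [← hg₀]
  have hh : σ (g₀⁻¹ * g) = D.U 0 u v := by
    rw [map_mul, map_inv, hσ₀, hg, D.xa_decomp t u v, D.xb_decomp u v]
    group
  have hc : (g₀⁻¹ * g) * D.xJ2 E x = D.xJ2 E x * (g₀⁻¹ * g) := by
    apply E.comm_of_cm
    rw [hh, D.σ_xJ2, D.x_B]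
  calc g * D.xJ2 E x * g⁻¹ = g₀ * ((g₀⁻¹ * g) * D.xJ2 E x) * (g₀⁻¹ * g)⁻¹ * g₀⁻¹ := by group
    _ = g₀ * D.xJ2 E x * g₀⁻¹ := by rw [hc]; group

/-- the central defect. -/
noncomputable def xdB (t x : K) : Γ :=
  E.lf (D.U t 0 0) * D.xJ2 E x * (E.lf (D.U t 0 0))⁻¹ * (D.xJ2 E x * D.xJ3 E (x * t))⁻¹

theorem σ_xdB (t x : K) : σ (D.xdB E t x) = 1 := by
  unfold xdB
  rw [map_mul, map_mul, map_mul, map_inv, map_inv, map_mul, E.σ_lf, D.σ_xJ2, D.σ_xJ3, D.xd_conj,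
    mul_inv_cancel]

theorem xdB_eq {g : Γ} {t u v : K} (hg : σ g = D.U t u v) (x : K) :
    g * D.xJ2 E x * g⁻¹ = D.xdB E t x * (D.xJ2 E x * D.xJ3 E (x * t)) := by
  rw [D.xd_indep E hg]
  unfold xdB
  group

theorem xdB_add (t t' x : K) : D.xdB E (t + t') x = D.xdB E t x * D.xdB E t' x := by
  obtain ⟨g, hg⟩ : ∃ g, σ g = D.U t 0 0 := ⟨_, E.σ_lf _⟩
  obtain ⟨g', hg'⟩ : ∃ g', σ g' = D.U t' 0 0 := ⟨_, E.σ_lf _⟩
  have hgg : σ (g * g') = D.U (t + t') (0 + 0 - t * D.ψ t')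
      (0 + 0 - 0 * t' + t * t' * D.ψ t' - t ^ 2 * D.ψ t') := by
    rw [map_mul, hg, hg', D.U_mul]
  have e0 := D.xdB_eq E hgg x
  have e1 := D.xdB_eq E hg' x
  have e2 := D.xdB_eq E hg x
  have e3 := D.xJ3_U E hg (x * t')
  have e4 := E.conj_cen (D.σ_xdB E t' x) g
  have e5 : D.xJ3 E (x * (t + t')) = D.xJ3 E (x * t) * D.xJ3 E (x * t') := by
    rw [mul_add, D.xJ3_add]
  have e6 : g * g' * D.xJ2 E x * (g * g')⁻¹
      = (g * D.xdB E t' x * g⁻¹) * (g * D.xJ2 E x * g⁻¹) * (g * D.xJ3 E (x * t') * g⁻¹) := by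
    calc g * g' * D.xJ2 E x * (g * g')⁻¹ = g * (g' * D.xJ2 E x * g'⁻¹) * g⁻¹ := by group
      _ = _ := by rw [e1]; group
  rw [e6, e4, e2, e3, e5] at e0
  have e7 : D.xdB E (t + t') x = D.xdB E t' x * D.xdB E t x := by
    have := congrArg (fun w => w * (D.xJ2 E x * (D.xJ3 E (x * t) * D.xJ3 E (x * t')))⁻¹) e0
    simp only [mul_inv_cancel_right] at this
    rw [← this]
    group
  rw [e7]
  exact E.cen (D.σ_xdB E t' x) _

theorem xdB_neg (t x : K) : D.xdB E (-t) x = D.xdB E t x := by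
  obtain ⟨g, hg⟩ : ∃ g, σ g = D.U t 0 0 := ⟨_, E.σ_lf _⟩
  obtain ⟨e, he⟩ : ∃ e, σ e = D.H (-1) := ⟨_, E.σ_lf _⟩
  have hg1 : σ (e * g * e⁻¹) = D.U (-t) 0 (-0) := by
    rw [map_mul, map_mul, map_inv, he, hg]
    exact D.pk2_j_conj t 0 0
  have e0 := D.xdB_eq E hg1 x
  have e1 := D.xdB_eq E hg x
  have e2 : e * D.xJ2 E x * e⁻¹ = D.xJ2 E x := by
    rw [D.xJ2_H E he]
    congr 1
    simp
  have e3 : e * D.xJ3 E (x * t) * e⁻¹ = D.xJ3 E (x * -t) := by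
    rw [D.xJ3_H E he]
    congr 1
    simp
  have e4 := E.conj_cen (D.σ_xdB E t x) e
  have e5 : e * g * e⁻¹ * D.xJ2 E x * (e * g * e⁻¹)⁻¹
      = D.xdB E t x * (D.xJ2 E x * D.xJ3 E (x * -t)) := by
    calc e * g * e⁻¹ * D.xJ2 E x * (e * g * e⁻¹)⁻¹
        = e * g * e⁻¹ * (e * D.xJ2 E x * e⁻¹) * (e * g * e⁻¹)⁻¹ := by rw [e2]
      _ = e * (g * D.xJ2 E x * g⁻¹) * e⁻¹ := by group
      _ = (e * D.xdB E t x * e⁻¹) * ((e * D.xJ2 E x * e⁻¹) * (e * D.xJ3 E (x * t) * e⁻¹)) := by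
          rw [e1]; group
      _ = _ := by rw [e4, e2, e3]
  rw [e5] at e0
  exact (mul_right_cancel e0).symm

theorem xdB_one (t x : K) : D.xdB E t x = 1 :=
  D.x_par_left (fun t x => D.xdB E t x) (fun t t' x => D.xdB_add E t t' x)
    (fun t x => D.xdB_neg E t x) t x

theorem xJ2_U {g : Γ} {t u v : K} (hg : σ g = D.U t u v) (x : K) :
    g * D.xJ2 E x * g⁻¹ = D.xJ2 E x * D.xJ3 E (x * t) := by
  rw [D.xdB_eq E hg, D.xdB_one, one_mul]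

end ReeFull

end Cfsg.Agent.Lib.Helper8
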