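import Cfsg.Agent.Lib.Helper8.Ree.XX

/-! REE ladder, X-chain (Schur multiplier), rung XE1 (helper67). -/

set_option autoImplicit false
open scoped commutatorElement

namespace Cfsg.Agent.Lib.Helper8

namespace ReeFull

variable {G : Type*} [Group G] {K : Type*} [Field K] (D : ReeFull G K)

variable {Γ : Type*} [Group Γ] {σ : Γ →* G} (E : CExt σ)

/-- commutators in `U` have first coordinate `0`. -/
theorem x_comm_U {x y : G} (hx : x ∈ D.Us) (hy : y ∈ D.Us) : ∃ a b, ⁅x, y⁆ = D.U 0 a b := by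
  obtain ⟨t, u, v, rfl⟩ := hx
  obtain ⟨t', u', v', rfl⟩ := hy
  rw [commutatorElement_def, D.U_inv, D.U_inv, D.U_mul, D.U_mul, D.U_mul]
  have h0 : t + t' + -t + -t' = 0 := by ring
  rw [h0]
  exact ⟨_, _, rfl⟩

theorem xe1_conj {x : G} (hx : x ∈ D.Us) (a b : K) : ∃ a' b', x * D.U 0 a b * x⁻¹ = D.U 0 a' b' := by
  obtain ⟨a₁, b₁, h₁⟩ := D.x_comm_U hx (D.U_mem 0 a b)
  refine ⟨a₁ + a, b₁ + b, ?_⟩
  rw [← D.xx_U0_mul, ← h₁, commutatorElement_def, inv_mul_cancel_right]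

/-- the commutator pairing modulo the section `xJ2 * xJ3`. -/
noncomputable def xdel (x y : G) : Γ := D.xchi E (E.cm x y)

theorem xe1_comm (a b : Γ) : D.xchi E a * D.xchi E b = D.xchi E b * D.xchi E a :=
  E.cen (D.σ_xchi E a) _

theorem xdel_mul_left {x x' y : G} (hx : x ∈ D.Us) (hx' : x' ∈ D.Us) (hy : y ∈ D.Us) :
    D.xdel E (x * x') y = D.xdel E x y * D.xdel E x' y := by
  unfold xdel
  obtain ⟨a, b, h1⟩ := D.x_comm_U hx hy
  obtain ⟨a', b', h2⟩ := D.x_comm_U hx' hy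
  obtain ⟨t, u, v, hxU⟩ := hx
  have e0 : E.cm (x * x') y = E.lf x * E.cm x' y * (E.lf x)⁻¹ * E.cm x y := by
    have : ⁅E.lf x * E.lf x', E.lf y⁆ = E.cm (x * x') y :=
      E.cm_eq' (by rw [map_mul, E.σ_lf, E.σ_lf]) (E.σ_lf _)
    rw [← this]
    unfold CExt.cm
    simp only [commutatorElement_def]; group
  have s1 : σ (E.cm x y) = D.U 0 a b := by rw [E.σ_cm, h1]
  have s2 : σ (E.cm x' y) = D.U 0 a' b' := by rw [E.σ_cm, h2]
  obtain ⟨a'', b'', h3⟩ := D.xe1_conj (x := x) ⟨t, u, v, hxU⟩ a' b'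
  have s3 : σ (E.lf x * E.cm x' y * (E.lf x)⁻¹) = D.U 0 a'' b'' := by
    rw [map_mul, map_mul, map_inv, E.σ_lf, s2, h3]
  rw [e0, D.xchi_mul E s3 s1, D.xchi_U E (by rw [E.σ_lf, hxU]) s2, D.xe1_comm]

theorem xdel_mul_right {x y y' : G} (hx : x ∈ D.Us) (hy : y ∈ D.Us) (hy' : y' ∈ D.Us) :
    D.xdel E x (y * y') = D.xdel E x y * D.xdel E x y' := by
  unfold xdel
  obtain ⟨a, b, h1⟩ := D.x_comm_U hx hy
  obtain ⟨a', b', h2⟩ := D.x_comm_U hx hy'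
  obtain ⟨t, u, v, hyU⟩ := hy
  have e0 : E.cm x (y * y') = E.cm x y * (E.lf y * E.cm x y' * (E.lf y)⁻¹) := by
    have : ⁅E.lf x, E.lf y * E.lf y'⁆ = E.cm x (y * y') :=
      E.cm_eq' (E.σ_lf _) (by rw [map_mul, E.σ_lf, E.σ_lf])
    rw [← this]
    unfold CExt.cm
    simp only [commutatorElement_def]; group
  have s1 : σ (E.cm x y) = D.U 0 a b := by rw [E.σ_cm, h1]
  have s2 : σ (E.cm x y') = D.U 0 a' b' := by rw [E.σ_cm, h2]
  obtain ⟨a'', b'', h3⟩ := D.xe1_conj (x := y) ⟨t, u, v, hyU⟩ a' b'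
  have s3 : σ (E.lf y * E.cm x y' * (E.lf y)⁻¹) = D.U 0 a'' b'' := by
    rw [map_mul, map_mul, map_inv, E.σ_lf, s2, h3]
  rw [e0, D.xchi_mul E s1 s3, D.xchi_U E (by rw [E.σ_lf, hyU]) s2]

theorem xdel_U1_right {x : G} (hx : x ∈ D.Us) (a b : K) : D.xdel E x (D.U 0 a b) = 1 := by
  unfold xdel
  obtain ⟨a'', b'', h3⟩ := D.xe1_conj hx a b
  obtain ⟨t, u, v, hxU⟩ := hx
  set g := E.lf x with hg
  set h := E.lf (D.U 0 a b) with hh
  have sg : σ g = D.U t u v := by rw [hg, E.σ_lf, hxU]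
  have sh : σ h = D.U 0 a b := E.σ_lf _
  have sh' : σ h⁻¹ = D.U 0 (-a) (-b) := by
    rw [map_inv, sh, inv_eq_iff_mul_eq_one, D.xx_U0_mul, add_neg_cancel, add_neg_cancel, D.U_zero]
  have s3 : σ (g * h * g⁻¹) = D.U 0 a'' b'' := by
    rw [map_mul, map_mul, map_inv, sh, hg, E.σ_lf, h3]
  have e0 : E.cm x (D.U 0 a b) = (g * h * g⁻¹) * h⁻¹ := by
    unfold CExt.cm
    rw [commutatorElement_def]
  rw [e0, D.xchi_mul E s3 sh', D.xchi_U E sg sh, D.xchi_inv E sh, mul_inv_cancel]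

theorem xdel_U1_left {y : G} (hy : y ∈ D.Us) (a b : K) : D.xdel E (D.U 0 a b) y = 1 := by
  unfold xdel
  obtain ⟨a'', b'', h3⟩ := D.xe1_conj hy (-a) (-b)
  obtain ⟨t, u, v, hyU⟩ := hy
  set g := E.lf y with hg
  set h := E.lf (D.U 0 a b) with hh
  have sg : σ g = D.U t u v := by rw [hg, E.σ_lf, hyU]
  have sh : σ h = D.U 0 a b := E.σ_lf _
  have sh' : σ h⁻¹ = D.U 0 (-a) (-b) := by
    rw [map_inv, sh, inv_eq_iff_mul_eq_one, D.xx_U0_mul, add_neg_cancel, add_neg_cancel, D.U_zero]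
  have s3 : σ (g * h⁻¹ * g⁻¹) = D.U 0 a'' b'' := by
    rw [map_mul, map_mul, sh', map_inv, hg, E.σ_lf, h3]
  have e0 : E.cm (D.U 0 a b) y = h * (g * h⁻¹ * g⁻¹) := by
    unfold CExt.cm
    rw [commutatorElement_def, ← hg, ← hh]
    simp only [mul_assoc]
  rw [e0, D.xchi_mul E sh s3, D.xchi_U E sg sh', D.xchi_inv E sh, mul_inv_cancel]

theorem xdel_H (z : Kˣ) {x y : G} (hx : x ∈ D.Us) (hy : y ∈ D.Us) :
    D.xdel E (D.H z * x * (D.H z)⁻¹) (D.H z * y * (D.H z)⁻¹) = D.xdel E x y := by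
  unfold xdel
  obtain ⟨a, b, h1⟩ := D.x_comm_U hx hy
  have s1 : σ (E.cm x y) = D.U 0 a b := by rw [E.σ_cm, h1]
  have := E.conj_cm (E.lf (D.H z)) x y
  rw [E.σ_lf] at this
  rw [← this, D.xchi_H E (E.σ_lf _) s1]

end ReeFull

end Cfsg.Agent.Lib.Helper8
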