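import Cfsg.Agent.Lib.Helper8.Ree.XE1

/-! REE ladder, X-chain (Schur multiplier), rung XE2 (helper67). -/

set_option autoImplicit false
open scoped commutatorElement

namespace Cfsg.Agent.Lib.Helper8

namespace ReeFull

variable {G : Type*} [Group G] {K : Type*} [Field K] (D : ReeFull G K)

variable {Γ : Type*} [Group Γ] {σ : Γ →* G} (E : CExt σ)

theorem xe2_split (t u v a b : K) : D.U t u v * D.U 0 a b = D.U t (u + a) (v + b) := by
  rw [D.U_mul]; congr 1 <;> simp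

theorem xe2_add (t t' : K) : ∃ a b, D.U (t + t') 0 0 = D.U t 0 0 * D.U t' 0 0 * D.U 0 a b := by
  rw [D.U_mul]
  refine ⟨-(0 + 0 - t * D.ψ t'), -(0 + 0 - 0 * t' + t * t' * D.ψ t' - t ^ 2 * D.ψ t'), ?_⟩
  rw [D.xe2_split, add_neg_cancel, add_neg_cancel]

theorem xe2_beta (t t' : K) : D.xdel E (D.U t 0 0) (D.U t' 0 0) = 1 := by
  apply D.x_P11 (fun t t' => D.xdel E (D.U t 0 0) (D.U t' 0 0))
  · intro x x' y
    obtain ⟨a, b, h⟩ := D.xe2_add x x'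
    show D.xdel E (D.U (x + x') 0 0) _ = _
    rw [h, D.xdel_mul_left E (mul_mem (D.U_mem _ _ _) (D.U_mem _ _ _)) (D.U_mem _ _ _) (D.U_mem _ _ _),
      D.xdel_U1_left E (D.U_mem _ _ _), mul_one,
      D.xdel_mul_left E (D.U_mem _ _ _) (D.U_mem _ _ _) (D.U_mem _ _ _)]
  · intro x y y'
    obtain ⟨a, b, h⟩ := D.xe2_add y y'
    show D.xdel E _ (D.U (y + y') 0 0) = _
    rw [h, D.xdel_mul_right E (D.U_mem _ _ _) (mul_mem (D.U_mem _ _ _) (D.U_mem _ _ _)) (D.U_mem _ _ _),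
      D.xdel_U1_right E (D.U_mem _ _ _), mul_one,
      D.xdel_mul_right E (D.U_mem _ _ _) (D.U_mem _ _ _) (D.U_mem _ _ _)]
  · intro z x y
    show D.xdel E (D.U (z * x) 0 0) (D.U (z * y) 0 0) = D.xdel E (D.U x 0 0) (D.U y 0 0)
    rw [← D.xdel_H E z (D.U_mem x 0 0) (D.U_mem y 0 0), D.H_conj, D.H_conj]
    simp

theorem xdel_one {x y : G} (hx : x ∈ D.Us) (hy : y ∈ D.Us) : D.xdel E x y = 1 := by
  obtain ⟨t, u, v, rfl⟩ := hx
  obtain ⟨t', u', v', rfl⟩ := hy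
  have e1 : D.U t u v = D.U t 0 0 * D.U 0 u v := by rw [D.xe2_split, zero_add, zero_add]
  have e2 : D.U t' u' v' = D.U t' 0 0 * D.U 0 u' v' := by rw [D.xe2_split, zero_add, zero_add]
  rw [e1, D.xdel_mul_left E (D.U_mem _ _ _) (D.U_mem _ _ _) (D.U_mem _ _ _),
    D.xdel_U1_left E (D.U_mem _ _ _), mul_one, e2,
    D.xdel_mul_right E (D.U_mem _ _ _) (D.U_mem _ _ _) (D.U_mem _ _ _),
    D.xdel_U1_right E (D.U_mem _ _ _), mul_one, D.xe2_beta]

/-- all commutators of the preimage of `U` lie in the section. -/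
theorem x_comm_section {g g' : Γ} (hg : σ g ∈ D.Us) (hg' : σ g' ∈ D.Us) :
    ∃ a b, ⁅g, g'⁆ = D.xJ2 E a * D.xJ3 E b := by
  obtain ⟨a, b, h⟩ := D.x_comm_U hg hg'
  refine ⟨a, b, D.xchi_eq_one E (by rw [map_commutatorElement, h]) ?_⟩
  rw [E.cm_eq]
  exact D.xdel_one E hg hg'

end ReeFull

end Cfsg.Agent.Lib.Helper8
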