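import Cfsg.Agent.Lib.Helper8.Ree.XBase

/-! REE ladder, X-chain (Schur multiplier), rung XF. -/

set_option autoImplicit false
open scoped commutatorElement

namespace Cfsg.Agent.Lib.Helper8

namespace ReeFull

variable {G : Type*} [Group G] {K : Type*} [Field K] (D : ReeFull G K)

include D in
/-- `-1` is not a square (`|K| = 3 ^ (2 m + 1) ≡ 3 mod 4`). -/
theorem x_not_sq (x : K) : x ^ 2 ≠ -1 := by
  intro h
  have hx : x ≠ 0 := by
    rintro rfl
    have : (0 : K) = -1 := by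
      rw [← h]; ring
    exact one_ne_zero (by linear_combination this : (1 : K) = 0)
  obtain ⟨N, hN⟩ : ∃ N, D.q - 1 = 2 * (2 * N + 1) :=
    ⟨(D.q - 3) / 4, by have := D.pk3_q_mod; omega⟩
  have h1 : (Units.mk0 x hx) ^ (D.q - 1) = 1 := by rw [← D.pk1_card_units]; exact pow_card_eq_one'
  have h2 : x ^ (D.q - 1) = 1 := by
    have := congrArg Units.val h1
    simpa using this
  rw [hN, pow_mul, h, Odd.neg_pow ⟨N, rfl⟩, one_pow] at h2
  apply D.two_ne_zero'
  linear_combination -h2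

section
variable {C : Type*} [Group C] (β : K → K → C)

theorem xf_zero_left (hl : ∀ x x' y, β (x + x') y = β x y * β x' y) (y : K) : β 0 y = 1 := by
  have := hl 0 0 y
  rw [add_zero] at this
  exact left_eq_mul.1 this

theorem xf_zero_right (hr : ∀ x y y', β x (y + y') = β x y * β x y') (x : K) : β x 0 = 1 := by
  have := hr x 0 0
  rw [add_zero] at this
  exact left_eq_mul.1 this

theorem xf_neg_left (hl : ∀ x x' y, β (x + x') y = β x y * β x' y) (x y : K) :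
    β (-x) y = (β x y)⁻¹ := by
  have := hl x (-x) y
  rw [add_neg_cancel, xf_zero_left β hl] at this
  exact eq_inv_of_mul_eq_one_right this.symm

theorem xf_neg_right (hr : ∀ x y y', β x (y + y') = β x y * β x y') (x y : K) :
    β x (-y) = (β x y)⁻¹ := by
  have := hr x y (-y)
  rw [add_neg_cancel, xf_zero_right β hr] at this
  exact eq_inv_of_mul_eq_one_right this.symm

include D in
theorem x_par_left (hl : ∀ x x' y, β (x + x') y = β x y * β x' y)
    (hp : ∀ x y, β (-x) y = β x y) : ∀ x y, β x y = 1 := by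
  intro x y
  have h2 : β x y * β x y = 1 := by
    have := xf_neg_left β hl x y
    rw [hp] at this
    nth_rewrite 1 [this]
    exact inv_mul_cancel _
  have h3 : β x y * β x y * β x y = 1 := by
    rw [← hl, ← hl]
    have : x + x + x = 0 := by linear_combination x * D.three
    rw [this, xf_zero_left β hl]
  rw [h2, one_mul] at h3
  exact h3

include D in
theorem x_par_right (hr : ∀ x y y', β x (y + y') = β x y * β x y')
    (hp : ∀ x y, β x (-y) = β x y) : ∀ x y, β x y = 1 := by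
  intro x y
  exact D.x_par_left (fun a b => β b a) (fun a a' b => hr b a a') (fun a b => hp b a) y x

/-- `(c, d)` is an adjoint pair for `β`. -/
def xfAdj (c d : K) : Prop := ∀ x y, β (c * x) y = β x (d * y)

variable {β}

theorem xfAdj.add (hl : ∀ x x' y, β (x + x') y = β x y * β x' y)
    (hr : ∀ x y y', β x (y + y') = β x y * β x y') {c d c' d' : K}
    (h : xfAdj β c d) (h' : xfAdj β c' d') : xfAdj β (c + c') (d + d') := by
  intro x y
  rw [add_mul, add_mul, hl, hr, h, h']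

theorem xfAdj.neg (hl : ∀ x x' y, β (x + x') y = β x y * β x' y)
    (hr : ∀ x y y', β x (y + y') = β x y * β x y') {c d : K}
    (h : xfAdj β c d) : xfAdj β (-c) (-d) := by
  intro x y
  rw [neg_mul, neg_mul, xf_neg_left β hl, xf_neg_right β hr, h]

theorem xfAdj.elim (hl : ∀ x x' y, β (x + x') y = β x y * β x' y) {d : K}
    (h : xfAdj β 0 d) (hd : d ≠ 0) : ∀ x y, β x y = 1 := by
  intro x y
  have := h x (d⁻¹ * y)
  rw [zero_mul, xf_zero_left β hl, ← mul_assoc, mul_inv_cancel₀ hd, one_mul] at this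
  exact this.symm

theorem xfAdj.two (hl : ∀ x x' y, β (x + x') y = β x y * β x' y)
    (hr : ∀ x y y', β x (y + y') = β x y * β x y') {c d d' : K}
    (h : xfAdj β c d) (h' : xfAdj β c d') (hne : d ≠ d') : ∀ x y, β x y = 1 := by
  have h1 := h.add hl hr (h'.neg hl hr)
  rw [add_neg_cancel] at h1
  exact h1.elim hl (by rw [← sub_eq_add_neg]; exact sub_ne_zero.2 hne)

theorem xfAdj.of_inv {a b : K} (hb : b ≠ 0) (h : ∀ x y, β (a * x) (b * y) = β x y) :
    xfAdj β a b⁻¹ := by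
  intro x y
  have := h x (b⁻¹ * y)
  rw [← mul_assoc, mul_inv_cancel₀ hb, one_mul] at this
  exact this

variable (β)

theorem xf_inv_eq {w v : K} (hw : w ≠ 0) (hv : v ≠ 0) (h : 1 + w⁻¹ = v⁻¹) : (w + 1) * v = w := by
  have h1 : (1 + w⁻¹) * (w * v) = v⁻¹ * (w * v) := by rw [h]
  have l : (1 + w⁻¹) * (w * v) = (w + 1) * v := by field_simp
  have r : v⁻¹ * (w * v) = w := by field_simp
  rw [← l, h1, r]

theorem xf_inv_eq' {w v : K} (hw : w ≠ 0) (hv : v ≠ 0) (h : 1 + -w⁻¹ = v⁻¹) : (w - 1) * v = w := by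
  have h1 : (1 + -w⁻¹) * (w * v) = v⁻¹ * (w * v) := by rw [h]
  have l : (1 + -w⁻¹) * (w * v) = (w - 1) * v := by field_simp; ring
  have r : v⁻¹ * (w * v) = w := by field_simp
  rw [← l, h1, r]

theorem xf_inv_eq'' {a b c : K} (ha : a ≠ 0) (hb : b ≠ 0) (hc : c ≠ 0) (h : a⁻¹ + b⁻¹ = c⁻¹) :
    (a + b) * c - a * b = 0 := by
  have h1 : (a⁻¹ + b⁻¹) * (a * b * c) = c⁻¹ * (a * b * c) := by rw [h]
  have l : (a⁻¹ + b⁻¹) * (a * b * c) = (a + b) * c := by field_simp; ring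
  have r : c⁻¹ * (a * b * c) = a * b := by field_simp
  rw [← l, h1, r, sub_self]

include D in
theorem x_P11 (hl : ∀ x x' y, β (x + x') y = β x y * β x' y)
    (hr : ∀ x y y', β x (y + y') = β x y * β x y')
    (hinv : ∀ (z : Kˣ) x y, β (z * x) (z * y) = β x y) : ∀ x y, β x y = 1 := by
  have ht0 := D.t₀_ne_zero
  have ht1 : 1 + D.t₀ ≠ 0 := by
    intro h
    apply D.t₀_sq
    linear_combination (D.t₀ - 1) * h
  have ht2 : D.t₀ - 1 ≠ 0 := by
    intro h
    apply D.t₀_sq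
    linear_combination (D.t₀ + 1) * h
  have adj : ∀ z : K, z ≠ 0 → xfAdj β z z⁻¹ := by
    intro z hz
    exact xfAdj.of_inv hz (hinv (Units.mk0 z hz))
  have a1 := (adj 1 one_ne_zero).add hl hr (adj _ ht0)
  have a2 := adj _ ht1
  apply a1.two hl hr a2
  intro h
  apply ht2
  have h3 := D.three
  have h4 : (D.t₀ - 1) ^ 2 = 0 := by
    field_simp at h
    linear_combination h - D.t₀ * h3
  exact pow_eq_zero_iff (two_ne_zero) |>.1 h4

theorem x_P33 (hl : ∀ x x' y, β (x + x') y = β x y * β x' y)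
    (hr : ∀ x y y', β x (y + y') = β x y * β x y')
    (hinv : ∀ (z : Kˣ) x y, β ((z : K) ^ 2 * D.ψ z * x) ((z : K) ^ 2 * D.ψ z * y) = β x y) :
    ∀ x y, β x y = 1 := by
  apply D.x_P11 β hl hr
  intro z x y
  have := hinv (D.ζ z) x y
  rwa [D.w_ζ] at this

theorem x_P13 (hl : ∀ x x' y, β (x + x') y = β x y * β x' y)
    (hr : ∀ x y y', β x (y + y') = β x y * β x y')
    (hinv : ∀ (z : Kˣ) x y, β (z * x) ((z : K) ^ 2 * D.ψ z * y) = β x y) :
    ∀ x y, β x y = 1 := by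
  have h3 := D.three
  have ht0 := D.t₀_ne_zero
  have ht1 : 1 + D.t₀ ≠ 0 := by
    intro h
    apply D.t₀_sq
    linear_combination (D.t₀ - 1) * h
  have ht2 : 1 + -D.t₀ ≠ 0 := by
    intro h
    apply D.t₀_sq
    linear_combination (-(D.t₀ + 1)) * h
  have hw : ∀ z : K, z ≠ 0 → z ^ 2 * D.ψ z ≠ 0 := fun z hz =>
    mul_ne_zero (pow_ne_zero 2 hz) ((map_ne_zero D.ψ).2 hz)
  have adj : ∀ z : K, z ≠ 0 → xfAdj β z (z ^ 2 * D.ψ z)⁻¹ := by
    intro z hz
    exact xfAdj.of_inv (hw z hz) (hinv (Units.mk0 z hz))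
  have a1 := (adj 1 one_ne_zero).add hl hr (adj _ ht0)
  have a2 := adj _ ht1
  have b1 := (adj 1 one_ne_zero).add hl hr ((adj _ ht0).neg hl hr)
  have b2 := adj _ ht2
  by_cases hp : ((1 : K) ^ 2 * D.ψ 1)⁻¹ + (D.t₀ ^ 2 * D.ψ D.t₀)⁻¹
      = ((1 + D.t₀) ^ 2 * D.ψ (1 + D.t₀))⁻¹
  swap
  · exact a1.two hl hr a2 hp
  by_cases hm : ((1 : K) ^ 2 * D.ψ 1)⁻¹ + -(D.t₀ ^ 2 * D.ψ D.t₀)⁻¹
      = ((1 + -D.t₀) ^ 2 * D.ψ (1 + -D.t₀))⁻¹
  swap
  · exact b1.two hl hr b2 hm
  exfalso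
  rw [map_one, one_pow, mul_one, inv_one] at hp hm
  have hPp := xf_inv_eq (hw _ ht0) (hw _ ht1) hp
  have hPm := xf_inv_eq' (hw _ ht0) (hw _ ht2) hm
  rw [map_add, map_one] at hPp
  rw [map_add, map_one, map_neg] at hPm
  obtain ⟨z, hz⟩ : ∃ z, z = D.t₀ := ⟨_, rfl⟩
  obtain ⟨s, hs⟩ : ∃ s, s = D.ψ D.t₀ := ⟨_, rfl⟩
  rw [← hs, ← hz] at hPp hPm
  rw [← hz] at ht0
  have hA : 1 + z ^ 2 ≠ 0 := by
    intro h
    exact D.x_not_sq z (by linear_combination h)
  have h1 : 2 * (1 + z ^ 2) * (1 + z ^ 2 * s ^ 2 - z * s) = 0 := by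
    linear_combination hPp - hPm - (2 * z ^ 3 * s + 2 * z * s) * h3
  have hE : 1 + z ^ 2 * s ^ 2 - z * s = 0 := by
    rcases mul_eq_zero.1 h1 with h | h
    · exact absurd h (mul_ne_zero D.two_ne_zero' hA)
    · exact h
  have h2 : (z * s + 1) ^ 2 = 0 := by linear_combination hE + z * s * h3
  have hzs : z * s + 1 = 0 := pow_eq_zero_iff (two_ne_zero) |>.1 h2
  have h4 : (1 + z ^ 2) ^ 2 + z ^ 2 = 0 := by
    linear_combination z * (hPp + hPm) + (-2 * z ^ 4 - 4 * z ^ 3 * s + 2 * z ^ 2 - 2) * hzs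
      + (z ^ 4 - z ^ 2 + 1) * h3
  apply D.x_not_sq ((1 + z ^ 2) / z)
  field_simp
  linear_combination h4

theorem x_P22 (hl : ∀ x x' y, β (x + x') y = β x y * β x' y)
    (hr : ∀ x y y', β x (y + y') = β x y * β x y')
    (hinv : ∀ (z : Kˣ) x y, β (z * D.ψ z * x) (z * D.ψ z * y) = β x y) :
    ∀ x y, β x y = 1 := by
  have h3 := D.three
  have ht0 := D.t₀_ne_zero
  have adj : ∀ c : K, c ≠ 0 → xfAdj β (c ^ 2) (c ^ 2)⁻¹ := by
    intro c hc
    have hp : D.ψ c ≠ 0 := (map_ne_zero D.ψ).2 hc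
    have hz : D.ψ c / c ≠ 0 := div_ne_zero hp hc
    have h := hinv (Units.mk0 _ hz)
    have e : (D.ψ c / c) * D.ψ (D.ψ c / c) = c ^ 2 := by
      rw [map_div₀, D.ψψ]; field_simp
    simp only [Units.val_mk0, e] at h
    exact xfAdj.of_inv (pow_ne_zero 2 hc) h
  obtain ⟨t, ht⟩ : ∃ t, t = D.t₀ := ⟨_, rfl⟩
  have ha : 1 - t ^ 2 ≠ 0 := by
    intro h
    apply D.t₀_sq
    rw [← ht]
    linear_combination -h
  have hb : 2 * t ≠ 0 := mul_ne_zero D.two_ne_zero' (by rw [ht]; exact ht0)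
  have hc : 1 + t ^ 2 ≠ 0 := by
    intro h
    exact D.x_not_sq t (by linear_combination h)
  have a1 := (adj _ ha).add hl hr (adj _ hb)
  have a2 := adj _ hc
  have e : (1 - t ^ 2) ^ 2 + (2 * t) ^ 2 = (1 + t ^ 2) ^ 2 := by ring
  rw [e] at a1
  apply a1.two hl hr a2
  intro h
  have h4 := xf_inv_eq'' (pow_ne_zero 2 ha) (pow_ne_zero 2 hb) (pow_ne_zero 2 hc) h
  have h5 : (((t - 1) ^ 2 + 1) * ((t + 1) ^ 2 + 1)) ^ 2 = 0 := by
    linear_combination h4 + (-2 * t ^ 4 + 5) * h3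
  have h6 := pow_eq_zero_iff (two_ne_zero) |>.1 h5
  rcases mul_eq_zero.1 h6 with h | h
  · exact D.x_not_sq (t - 1) (by linear_combination h)
  · exact D.x_not_sq (t + 1) (by linear_combination h)

end

end ReeFull

end Cfsg.Agent.Lib.Helper8
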