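import Cfsg.Agent.Lib.Helper8.Ree.XBase
import Cfsg.Agent.Lib.Helper8.Ree.S0D

/-! REE ladder, X-chain (Schur multiplier), rung XT2 (helper67). -/

set_option autoImplicit false
open scoped commutatorElement

namespace Cfsg.Agent.Lib.Helper8

namespace ReeFull

variable {G : Type*} [Group G] {K : Type*} [Field K] (D : ReeFull G K)

variable {Γ : Type*} [Group Γ] {σ : Γ →* G} (E : CExt σ)

theorem xt2_comm {a b : G} (ha : a ∈ D.S0) (hb : b ∈ D.S0) : ⁅a, b⁆ = 1 :=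
  commutatorElement_eq_one_iff_mul_comm.2 (D.s0b_comm_S0 ha hb)

theorem xt2_j_n_v : E.cm D.j D.n = 1 ∧ E.cm D.j D.v = 1 := by
  obtain ⟨g, -, hgj, e1, e2⟩ := D.s0d_exists_u
  have e3 : g * D.j * g⁻¹ = D.j := by rw [hgj, mul_inv_cancel_right]
  have h1 : E.cm D.j D.v = E.cm D.j D.n := by
    have := E.cm_conj g D.j D.n (D.xt2_comm D.s0d_j_mem D.s0d_n_mem)
    rwa [e3, e1] at this
  have h2 : E.cm D.j (D.n * D.v) = E.cm D.j D.v := by
    have := E.cm_conj g D.j D.v (D.xt2_comm D.s0d_j_mem D.s0d_v_mem)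
    rwa [e3, e2] at this
  have h3 : E.cm D.j (D.n * D.v) = E.cm D.j D.n * E.cm D.j D.v :=
    E.cm_mul_right (D.xt2_comm D.s0d_j_mem D.s0d_v_mem)
  rw [h2, h1] at h3
  have h4 : E.cm D.j D.n = 1 := by
    have := h3.symm
    rwa [mul_eq_left] at this
  exact ⟨h4, by rw [h1, h4]⟩

theorem xt2_j {s : G} (hs : s ∈ D.S0) : E.cm D.j s = 1 := by
  obtain ⟨h1, h2⟩ := D.xt2_j_n_v E
  have h3 : E.cm D.j (D.n * D.v) = 1 := by
    rw [E.cm_mul_right (D.xt2_comm D.s0d_j_mem D.s0d_v_mem), h1, h2, one_mul]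
  rcases D.mem_S0.1 hs with rfl | rfl | rfl | rfl | rfl | rfl | rfl | rfl
  · exact E.cm_one_right _
  · exact h1
  · exact h2
  · exact h3
  · exact E.cm_self _
  · rw [E.cm_mul_right (D.xt2_comm D.s0d_j_mem D.s0d_n_mem), E.cm_self, h1, one_mul]
  · rw [E.cm_mul_right (D.xt2_comm D.s0d_j_mem D.s0d_v_mem), E.cm_self, h2, one_mul]
  · rw [E.cm_mul_right (D.xt2_comm D.s0d_j_mem (mul_mem D.s0d_n_mem D.s0d_v_mem)), E.cm_self, h3,
      one_mul]

theorem xt2_cm {a b : G} (ha : a ∈ D.S0) (hb : b ∈ D.S0) : E.cm a b = 1 := by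
  by_cases ha1 : a = 1
  · rw [ha1]; exact E.cm_one_left _
  obtain ⟨g, hg, hga⟩ := D.S0_trans D.s0d_j_mem ha D.j_ne_one ha1
  have hb' : g⁻¹ * b * g ∈ D.S0 := by
    have := (Subgroup.mem_normalizer_iff.1 (inv_mem hg) b).1 hb
    rwa [inv_inv] at this
  have h1 := E.cm_conj g D.j (g⁻¹ * b * g) (D.xt2_comm D.s0d_j_mem hb')
  have h2 : g * (g⁻¹ * b * g) * g⁻¹ = b := by group
  rw [hga, h2, D.xt2_j E hb'] at h1
  exact h1

include E in
/-- the preimage of the Sylow 2-subgroup `S0` is abelian. -/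
theorem x_T2 {x y : Γ} (hx : σ x ∈ D.S0) (hy : σ y ∈ D.S0) : x * y = y * x :=
  E.comm_of_cm (D.xt2_cm E hx hy)

end ReeFull

end Cfsg.Agent.Lib.Helper8
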