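import Cfsg.Agent.Lib.Helper8.Ree.XT3
import Cfsg.Agent.Lib.Helper8.Ree.XT2
import Cfsg.Agent.Lib.Helper8.Ree.F1156
import Cfsg.Agent.Lib.Helper41.SchurTransfer
import Cfsg.Agent.S0102

/-! REE ladder, X-chain (Schur multiplier), rung XFin (helper67). -/

set_option autoImplicit false
open scoped commutatorElement

namespace Cfsg.Agent.Lib.Helper8

/-- transfer criterion: a central subgroup `A ≤ Γ'` meeting `P'` trivially has order prime to
every prime not dividing `|Γ : P|`. -/
theorem xfin_key {Γ : Type*} [Group Γ] [Finite Γ] (P A : Subgroup Γ)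
    (hzc : A ≤ Subgroup.center Γ) (hs : A ≤ commutator Γ)
    (hP : ∀ x ∈ ⁅P, P⁆, x ∈ A → x = 1) {p : ℕ} (hp : p.Prime) (hpi : ¬ p ∣ P.index) :
    ¬ p ∣ Nat.card A := by
  intro hdvd
  haveI : Fact p.Prime := ⟨hp⟩
  obtain ⟨z, hz⟩ := exists_prime_orderOf_dvd_card' (G := A) p hdvd
  have hzo : orderOf (z : Γ) = p := by rw [Subgroup.orderOf_coe, hz]
  obtain ⟨h1, h2⟩ := Cfsg.Agent.Lib.Helper41.pow_index_mem_commutator P (z : Γ) (hzc z.2) (hs z.2)
  have h3 : (z : Γ) ^ P.index ∈ ⁅P, P⁆ := by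
    rw [← Subgroup.map_subtype_commutator]
    exact ⟨_, h2, rfl⟩
  have h4 := hP _ h3 (A.pow_mem z.2 _)
  apply hpi
  rw [← hzo]
  exact orderOf_dvd_of_pow_eq_one h4

namespace ReeFull

variable {G : Type*} [Group G] {K : Type*} [Field K] (D : ReeFull G K)

theorem xfin_index_Us : ¬ 3 ∣ D.Us.index := by
  haveI := D.finite_G
  have h1 := D.Us.card_mul_index
  rw [D.card_Us, D.card_G, mul_assoc] at h1
  have hq : 0 < D.q ^ 3 := by
    have := D.q_ge
    positivity
  have h2 : D.Us.index = (D.q ^ 3 + 1) * (D.q - 1) := Nat.eq_of_mul_eq_mul_left hq h1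
  rw [h2]
  have h3 := D.ar_q_mod3
  have hge := D.q_ge
  intro hdvd
  rcases (Nat.Prime.dvd_mul Nat.prime_three).1 hdvd with h | h
  · have : D.q ^ 3 % 3 = 0 := by rw [Nat.pow_mod, h3]
    omega
  · omega

theorem xfin_index_S0 : ¬ 2 ∣ D.S0.index := by
  haveI := D.finite_G
  have h1 := D.S0.card_mul_index
  rw [D.card_S0, D.card_G_eq] at h1
  have h2 := Nat.eq_of_mul_eq_mul_left (by norm_num) h1
  rw [h2]
  obtain ⟨k, hk⟩ := D.odd_part
  rw [hk]
  omega

include D in
open Matrix in
/-- every finite stem extension of a small Ree group is trivial. -/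
theorem stem_trivial (ρ : G →* GL (Fin 7) K) (hρ : Function.Injective ρ)
    {Γ : Type*} [Group Γ] [Finite Γ] (σ : Γ →* G) (hσ : Function.Surjective σ)
    (hz : σ.ker ≤ Subgroup.center Γ) (hs : σ.ker ≤ commutator Γ) : σ.ker = ⊥ := by
  haveI := D.finite_G
  have E : CExt σ := ⟨hσ, fun {c} hc g => (Subgroup.mem_center_iff.1 (hz (MonoidHom.mem_ker.2 hc)) g).symm⟩
  have hperf : commutator Γ = ⊤ := by
    rw [eq_top_iff]
    intro g _
    have h1 : σ g ∈ (commutator Γ).map σ := by
      have : (commutator Γ).map σ = ⊤ := by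
        rw [commutator_def, Subgroup.map_commutator, ← MonoidHom.range_eq_map,
          MonoidHom.range_eq_top.2 hσ, ← commutator_def, D.perfect]
      rw [this]; trivial
    obtain ⟨g', hg', hgg⟩ := h1
    have h2 : g'⁻¹ * g ∈ σ.ker := by
      rw [MonoidHom.mem_ker, map_mul, map_inv, hgg, inv_mul_cancel]
    have := mul_mem hg' (hs h2)
    rwa [mul_inv_cancel_left] at this
  rw [← Subgroup.card_eq_one, Nat.eq_one_iff_not_exists_prime_dvd]
  intro p hp
  by_cases h3 : 3 < p
  · haveI : Fact p.Prime := ⟨hp⟩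
    exact Cfsg.Agent.S0102.result D.perfect (fun P => D.F1156 ρ hρ h3 P) σ hσ hz hperf
  · have hp23 : p = 2 ∨ p = 3 := by
      have := hp.two_le
      interval_cases p
      · left; rfl
      · right; rfl
    rcases hp23 with rfl | rfl
    · apply xfin_key (D.S0.comap σ) σ.ker hz hs _ hp
      · rw [Subgroup.index_comap_of_surjective _ hσ]
        exact D.xfin_index_S0
      · intro x hx _
        have hle : ⁅D.S0.comap σ, D.S0.comap σ⁆ ≤ ⊥ := by
          rw [Subgroup.commutator_le]
          intro a ha b hb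
          rw [Subgroup.mem_bot, commutatorElement_eq_one_iff_mul_comm]
          exact D.x_T2 E ha hb
        exact Subgroup.mem_bot.1 (hle hx)
    · apply xfin_key (D.Us.comap σ) σ.ker hz hs _ hp
      · rw [Subgroup.index_comap_of_surjective _ hσ]
        exact D.xfin_index_Us
      · intro x hx hxk
        exact D.x_T3 E hx (MonoidHom.mem_ker.1 hxk)

end ReeFull

end Cfsg.Agent.Lib.Helper8
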