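import Cfsg.Agent.Lib.Helper8.Ree.XE2

/-! REE ladder, X-chain (Schur multiplier), rung XT3 (helper67). -/

set_option autoImplicit false
open scoped commutatorElement

namespace Cfsg.Agent.Lib.Helper8

namespace ReeFull

variable {G : Type*} [Group G] {K : Type*} [Field K] (D : ReeFull G K)

variable {Γ : Type*} [Group Γ] {σ : Γ →* G} (E : CExt σ)

/-- the section `{xJ2 a * xJ3 b}` as a subgroup. -/
noncomputable def xt3_sec : Subgroup Γ where
  carrier := {x | ∃ a b, x = D.xJ2 E a * D.xJ3 E b}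
  mul_mem' := by
    rintro _ _ ⟨a, b, rfl⟩ ⟨a', b', rfl⟩
    exact ⟨_, _, D.xx_mul E a b a' b'⟩
  one_mem' := ⟨0, 0, by rw [D.xx_J2_zero, D.xx_J3_zero, one_mul]⟩
  inv_mem' := by
    rintro _ ⟨a, b, rfl⟩
    refine ⟨-a, -b, ?_⟩
    rw [inv_eq_iff_mul_eq_one, D.xx_mul, add_neg_cancel, add_neg_cancel, D.xx_J2_zero,
      D.xx_J3_zero, one_mul]

include E in
/-- the derived group of the preimage of `U` meets the kernel trivially. -/
theorem x_T3 {x : Γ} (hx : x ∈ ⁅D.Us.comap σ, D.Us.comap σ⁆) (h1 : σ x = 1) : x = 1 := by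
  have hle : ⁅D.Us.comap σ, D.Us.comap σ⁆ ≤ D.xt3_sec E := by
    rw [Subgroup.commutator_le]
    intro g hg g' hg'
    exact D.x_comm_section E hg hg'
  obtain ⟨a, b, rfl⟩ := hle hx
  rw [D.xx_σ, ← D.U_zero] at h1
  obtain ⟨-, h2, h3⟩ := D.U_inj _ _ _ _ _ _ h1
  rw [h2, h3, D.xx_J2_zero, D.xx_J3_zero, one_mul]

end ReeFull

end Cfsg.Agent.Lib.Helper8
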