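import Cfsg.Agent.Lib.Helper8.Ree.XD

/-! REE ladder, X-chain (Schur multiplier), rung XX (helper67). -/

set_option autoImplicit false
open scoped commutatorElement

namespace Cfsg.Agent.Lib.Helper8

namespace ReeFull

variable {G : Type*} [Group G] {K : Type*} [Field K] (D : ReeFull G K)

variable {Γ : Type*} [Group Γ] {σ : Γ →* G} (E : CExt σ)

open Classical in
/-- the central part of a lift `h` of `U 0 a b`: `h = xchi h * (xJ2 a * xJ3 b)`. -/
noncomputable def xchi (h : Γ) : Γ :=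
  if hh : ∃ a b, σ h = D.U 0 a b then
    h * (D.xJ2 E hh.choose * D.xJ3 E hh.choose_spec.choose)⁻¹ else 1

theorem xx_U0 (a b : K) : D.U 0 a 0 * D.U 0 0 b = D.U 0 a b := by
  rw [D.U_mul]; congr 1 <;> simp

theorem xx_U0_mul (a b a' b' : K) : D.U 0 a b * D.U 0 a' b' = D.U 0 (a + a') (b + b') := by
  rw [D.U_mul]; congr 1 <;> simp

theorem xx_σ (a b : K) : σ (D.xJ2 E a * D.xJ3 E b) = D.U 0 a b := by
  rw [map_mul, D.σ_xJ2, D.σ_xJ3, D.xx_U0]

theorem xchi_eq {h : Γ} {a b : K} (hh : σ h = D.U 0 a b) :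
    D.xchi E h = h * (D.xJ2 E a * D.xJ3 E b)⁻¹ := by
  have hex : ∃ a b, σ h = D.U 0 a b := ⟨a, b, hh⟩
  unfold xchi
  rw [dif_pos hex]
  have h1 := hex.choose_spec.choose_spec
  obtain ⟨-, h2, h3⟩ := D.U_inj _ _ _ _ _ _ (hh.symm.trans h1)
  rw [← h3]
  congr 3
  exact congrArg _ h2.symm

theorem σ_xchi (h : Γ) : σ (D.xchi E h) = 1 := by
  by_cases hex : ∃ a b, σ h = D.U 0 a b
  · obtain ⟨a, b, hh⟩ := hex
    rw [D.xchi_eq E hh, map_mul, map_inv, D.xx_σ, hh, mul_inv_cancel]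
  · unfold xchi
    rw [dif_neg hex, map_one]

theorem xx_decomp {h : Γ} {a b : K} (hh : σ h = D.U 0 a b) :
    h = D.xchi E h * (D.xJ2 E a * D.xJ3 E b) := by
  rw [D.xchi_eq E hh, inv_mul_cancel_right]

theorem xx_of {c : Γ} (hc : σ c = 1) (a b : K) : D.xchi E (c * (D.xJ2 E a * D.xJ3 E b)) = c := by
  rw [D.xchi_eq E (a := a) (b := b) (by rw [map_mul, hc, one_mul, D.xx_σ]), mul_inv_cancel_right]

theorem xx_J3_J2 (a b : K) : D.xJ3 E b * D.xJ2 E a = D.xJ2 E a * D.xJ3 E b := by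
  have := D.xJ3_U E (g := D.xJ2 E a) (D.σ_xJ2 E a) b
  rw [mul_inv_eq_iff_eq_mul] at this
  exact this.symm

theorem xx_mul (a b a' b' : K) : (D.xJ2 E a * D.xJ3 E b) * (D.xJ2 E a' * D.xJ3 E b') =
    D.xJ2 E (a + a') * D.xJ3 E (b + b') := by
  rw [D.xJ2_add, D.xJ3_add]
  calc D.xJ2 E a * D.xJ3 E b * (D.xJ2 E a' * D.xJ3 E b')
      = D.xJ2 E a * (D.xJ3 E b * D.xJ2 E a') * D.xJ3 E b' := by simp only [mul_assoc]
    _ = D.xJ2 E a * (D.xJ2 E a' * D.xJ3 E b) * D.xJ3 E b' := by rw [D.xx_J3_J2]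
    _ = _ := by simp only [mul_assoc]

theorem xchi_mul {h h' : Γ} {a b a' b' : K} (hh : σ h = D.U 0 a b) (hh' : σ h' = D.U 0 a' b') :
    D.xchi E (h * h') = D.xchi E h * D.xchi E h' := by
  have e1 := D.xx_decomp E hh
  have e2 := D.xx_decomp E hh'
  set c := D.xchi E h with hc
  set c' := D.xchi E h' with hc'
  have hc1 : σ c = 1 := D.σ_xchi E h
  have hc1' : σ c' = 1 := D.σ_xchi E h'
  have e3 : h * h' = (c * c') * (D.xJ2 E (a + a') * D.xJ3 E (b + b')) := by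
    rw [← D.xx_mul, e1, e2]
    calc c * (D.xJ2 E a * D.xJ3 E b) * (c' * (D.xJ2 E a' * D.xJ3 E b'))
        = c * ((D.xJ2 E a * D.xJ3 E b) * c') * (D.xJ2 E a' * D.xJ3 E b') := by
          simp only [mul_assoc]
      _ = c * (c' * (D.xJ2 E a * D.xJ3 E b)) * (D.xJ2 E a' * D.xJ3 E b') := by
          rw [E.cen hc1']
      _ = _ := by simp only [mul_assoc]
  rw [e3, D.xx_of E (by rw [map_mul, hc1, hc1', one_mul])]

theorem xx_J2_zero : D.xJ2 E 0 = 1 := by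
  have := D.xJ2_add E 0 0
  rw [add_zero] at this
  exact (mul_eq_left.1 this.symm)

theorem xx_J3_zero : D.xJ3 E 0 = 1 := by
  have := D.xJ3_add E 0 0
  rw [add_zero] at this
  exact (mul_eq_left.1 this.symm)

theorem xx_one : D.xchi E 1 = 1 := by
  have := D.xx_of E (c := 1) (map_one σ) 0 0
  rwa [D.xx_J2_zero, D.xx_J3_zero, one_mul, one_mul] at this

theorem xchi_inv {h : Γ} {a b : K} (hh : σ h = D.U 0 a b) :
    D.xchi E h⁻¹ = (D.xchi E h)⁻¹ := by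
  have hh' : σ h⁻¹ = D.U 0 (-a) (-b) := by
    rw [map_inv, hh, inv_eq_iff_mul_eq_one, D.xx_U0_mul, add_neg_cancel, add_neg_cancel, D.U_zero]
  have := D.xchi_mul E hh hh'
  rw [mul_inv_cancel, D.xx_one] at this
  exact (inv_eq_of_mul_eq_one_right this.symm).symm

theorem xchi_U {g h : Γ} {t u v a b : K} (hg : σ g = D.U t u v) (hh : σ h = D.U 0 a b) :
    D.xchi E (g * h * g⁻¹) = D.xchi E h := by
  have e1 := D.xx_decomp E hh
  set c := D.xchi E h with hc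
  have hc1 : σ c = 1 := D.σ_xchi E h
  have e2 : g * h * g⁻¹ = c * (D.xJ2 E a * D.xJ3 E (a * t + b)) := by
    rw [D.xJ3_add, ← mul_assoc (D.xJ2 E a), ← D.xJ2_U E hg, ← D.xJ3_U E hg b]
    conv_lhs => rw [e1]
    have : g * c = c * g := (E.cen hc1 g).symm
    calc g * (c * (D.xJ2 E a * D.xJ3 E b)) * g⁻¹
        = (g * c) * (D.xJ2 E a * D.xJ3 E b) * g⁻¹ := by simp only [mul_assoc]
      _ = (c * g) * (D.xJ2 E a * D.xJ3 E b) * g⁻¹ := by rw [this]
      _ = _ := by group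
  rw [e2, D.xx_of E hc1]

theorem xchi_H {e h : Γ} {z : Kˣ} {a b : K} (he : σ e = D.H z) (hh : σ h = D.U 0 a b) :
    D.xchi E (e * h * e⁻¹) = D.xchi E h := by
  have e1 := D.xx_decomp E hh
  set c := D.xchi E h with hc
  have hc1 : σ c = 1 := D.σ_xchi E h
  have e2 : e * h * e⁻¹ = c * (D.xJ2 E (z * D.ψ z * a) * D.xJ3 E ((z : K) ^ 2 * D.ψ z * b)) := by
    rw [← D.xJ2_H E he, ← D.xJ3_H E he]
    conv_lhs => rw [e1]
    have : e * c = c * e := (E.cen hc1 e).symm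
    calc e * (c * (D.xJ2 E a * D.xJ3 E b)) * e⁻¹
        = (e * c) * (D.xJ2 E a * D.xJ3 E b) * e⁻¹ := by simp only [mul_assoc]
      _ = (c * e) * (D.xJ2 E a * D.xJ3 E b) * e⁻¹ := by rw [this]
      _ = _ := by group
  rw [e2, D.xx_of E hc1]

theorem xchi_eq_one {h : Γ} {a b : K} (hh : σ h = D.U 0 a b) (h1 : D.xchi E h = 1) :
    h = D.xJ2 E a * D.xJ3 E b := by
  have := D.xx_decomp E hh
  rwa [h1, one_mul] at this

end ReeFull

end Cfsg.Agent.Lib.Helper8
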